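import Mathlib
import Cfsg.Agent.Lib.Hexacode.Basic
import Cfsg.Agent.Lib.Classical.SLGroup
import Cfsg.Agent.Lib.Classical.LinearOrders
import Cfsg.Agent.Lib.Golay.Fixer
import Cfsg.Agent.Lib.Leech.Tri.Orbit

/-!
The stabiliser of three points in the group of the code is the special projective group of the plane of order four.
-/

set_option autoImplicit false
set_option linter.unusedSimpArgs false

namespace Cfsg.Lib.Golay.Plane

open Cfsg Cfsg.Lib.Golay Cfsg.Lib.Hexacode Matrix Matrix.SpecialLinearGroup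
open Cfsg.Lib.Leech.Tri (triSet)

/-- Homogeneous coordinates of the points; the three fixed points get zero. -/
def planeRep : List (List (Fin 4)) := [[0, 0, 0], [0, 0, 0], [0, 0, 1], [0, 1, 0], [1, 0, 0], [0, 1, 1], [1, 1, 3], [1, 1, 1], [1, 3, 3], [1, 2, 1], [1, 2, 3], [1, 3, 0], [1, 3, 2], [1, 0, 3], [0, 1, 2], [1, 2, 2], [1, 0, 1], [0, 1, 3], [1, 3, 1], [1, 1, 0], [1, 2, 0], [1, 1, 2], [1, 0, 2], [0, 0, 0]]

/-- The permutations of the elementary transvections. -/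
def planeMoves : List ((Fin 3 × Fin 3 × Fin 4) × List ℕ) := [
  ((0, 1, 1), [0, 1, 2, 19, 4, 7, 17, 5, 15, 12, 18, 20, 9, 13, 21, 8, 16, 6, 10, 3, 11, 14, 22, 23]),
  ((0, 1, 2), [0, 1, 2, 11, 4, 8, 9, 15, 5, 6, 21, 3, 17, 13, 18, 7, 16, 12, 14, 20, 19, 10, 22, 23]),
  ((0, 1, 3), [0, 1, 2, 20, 4, 15, 12, 8, 7, 17, 14, 19, 6, 13, 10, 5, 16, 9, 21, 11, 3, 18, 22, 23]),
  ((0, 2, 1), [0, 1, 16, 3, 4, 7, 12, 5, 15, 17, 21, 11, 6, 22, 18, 8, 2, 9, 14, 19, 20, 10, 13, 23]),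
  ((0, 2, 2), [0, 1, 13, 3, 4, 8, 17, 15, 5, 12, 14, 11, 9, 2, 10, 7, 22, 6, 21, 19, 20, 18, 16, 23]),
  ((0, 2, 3), [0, 1, 22, 3, 4, 15, 9, 8, 7, 6, 18, 11, 17, 16, 21, 5, 13, 12, 10, 19, 20, 14, 2, 23]),
  ((1, 0, 1), [0, 1, 2, 3, 19, 5, 13, 16, 10, 18, 8, 20, 15, 6, 14, 12, 7, 17, 9, 4, 11, 22, 21, 23]),
  ((1, 0, 2), [0, 1, 2, 3, 20, 5, 8, 18, 6, 16, 13, 19, 21, 10, 14, 22, 9, 17, 7, 11, 4, 12, 15, 23]),
  ((1, 0, 3), [0, 1, 2, 3, 11, 5, 10, 9, 13, 7, 6, 4, 22, 8, 14, 21, 18, 17, 16, 20, 19, 15, 12, 23]),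
  ((1, 2, 1), [0, 1, 5, 3, 4, 2, 10, 16, 13, 18, 6, 11, 21, 8, 17, 22, 7, 14, 9, 19, 20, 12, 15, 23]),
  ((1, 2, 2), [0, 1, 17, 3, 4, 14, 13, 18, 10, 16, 8, 11, 22, 6, 5, 21, 9, 2, 7, 19, 20, 15, 12, 23]),
  ((1, 2, 3), [0, 1, 14, 3, 4, 17, 8, 9, 6, 7, 13, 11, 15, 10, 2, 12, 18, 5, 16, 19, 20, 22, 21, 23]),
  ((2, 0, 1), [0, 1, 2, 3, 16, 5, 21, 19, 12, 20, 15, 18, 8, 22, 14, 10, 4, 17, 11, 7, 9, 6, 13, 23]),
  ((2, 0, 2), [0, 1, 2, 3, 22, 5, 7, 6, 18, 10, 9, 12, 11, 16, 14, 20, 13, 17, 8, 21, 15, 19, 4, 23]),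
  ((2, 0, 3), [0, 1, 2, 3, 13, 5, 19, 21, 11, 15, 20, 8, 18, 4, 14, 9, 22, 17, 12, 6, 10, 7, 16, 23]),
  ((2, 1, 1), [0, 1, 2, 5, 4, 3, 21, 19, 11, 10, 9, 8, 18, 13, 17, 20, 16, 14, 12, 7, 15, 6, 22, 23]),
  ((2, 1, 2), [0, 1, 2, 14, 4, 17, 7, 6, 12, 15, 20, 18, 8, 13, 3, 9, 16, 5, 11, 21, 10, 19, 22, 23]),
  ((2, 1, 3), [0, 1, 2, 17, 4, 14, 19, 21, 18, 20, 15, 12, 11, 13, 5, 10, 16, 3, 8, 6, 9, 7, 22, 23])]

/-- The coordinates of a point. -/
def planeVec (p : GolayPt) (k : Fin 3) : Fin 4 := (planeRep.getD (idx p) []).getD k 0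

theorem planeRep_check : (∀ p, p ∉ triSet → ∃ k, planeVec p k ≠ 0) ∧
    (∀ p, p ∈ triSet → ∀ k, planeVec p k = 0) ∧
    ∀ p, p ∉ triSet → ∀ q, q ∉ triSet → ∀ t : Fin 4, (∀ k, mulT t (planeVec p k) = planeVec q k) → p = q := by
  decide +kernel

set_option synthInstance.maxSize 2000 in
set_option maxRecDepth 100000 in
theorem planeMoves_check : ∀ e ∈ planeMoves, keepsCode e.2 = true ∧
    (∀ p, p ∈ triSet → pt (e.2.getD (idx p) 0) = p) ∧
    (∀ p, p ∉ triSet → pt (e.2.getD (idx p) 0) ∉ triSet ∧ ∃ t : Fin 4, t ≠ 0 ∧ ∀ k,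
      addT (planeVec p k) (if k = e.1.1 then mulT e.1.2.2 (planeVec p e.1.2.1) else 0) =
        mulT t (planeVec (pt (e.2.getD (idx p) 0)) k)) := by decide +kernel

set_option synthInstance.maxSize 2000 in
theorem planeMoves_all : ∀ i j : Fin 3, i ≠ j → ∀ c : Fin 4, c ≠ 0 →
    (i, j, c) ∈ planeMoves.map Prod.fst := by decide +kernel

theorem exists_iso (F : Type) [Field F] [Fintype F] (hF : Fintype.card F = 4) :
    Nonempty (↥(fixer triSet) ≃* Matrix.ProjectiveSpecialLinearGroup (Fin 3) F) := by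
  classical
  obtain ⟨ω, hω⟩ : ∃ ω : F, ω ^ 2 + ω + 1 = 0 := by
    obtain ⟨ω, h0, h1⟩ : ∃ ω : F, ω ≠ 0 ∧ ω ≠ 1 := by
      by_contra! h
      have : (Finset.univ : Finset F) ⊆ {0, 1} := fun x _ => by
        by_cases e : x = 0
        · simp [e]
        · simp [h x e]
      have := (Finset.card_le_card this).trans Finset.card_le_two
      rw [Finset.card_univ, hF] at this
      omega
    refine ⟨ω, ?_⟩
    have h := FiniteField.pow_card ω
    rw [hF] at h
    have e : ω * ((ω - 1) * (ω ^ 2 + ω + 1)) = 0 := by linear_combination h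
    simpa [h0, sub_ne_zero.2 h1] using e
  have hmul := phi_mul hF ω hω
  have hadd := phi_add hF ω hω
  have hbij := phi_bijective hF ω hω
  have hz : ∀ {a : Fin 4}, phi ω a = 0 ↔ a = 0 := fun {a} => phi_eq_zero hF ω hω
  let vec : GolayPt → Fin 3 → F := fun p k => phi ω (planeVec p k)
  let Rel : Matrix.SpecialLinearGroup (Fin 3) F → Equiv.Perm GolayPt → Prop := fun g σ =>
    σ ∈ fixer triSet ∧ ∀ p, p ∉ triSet → ∃ a : F, a ≠ 0 ∧ g.1 *ᵥ vec p = a • vec (σ p)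
  have hout : ∀ {σ : Equiv.Perm GolayPt}, σ ∈ fixer triSet → ∀ p, p ∉ triSet → σ p ∉ triSet := by
    intro σ hσ p hp h
    have e : σ (σ p) = σ p := hσ.2 _ h
    exact hp (σ.injective e ▸ h)
  have huniq : ∀ g σ τ, Rel g σ → Rel g τ → σ = τ := by
    intro g σ τ hs ht
    refine Equiv.ext fun p => ?_
    by_cases hp : p ∈ triSet
    · rw [hs.1.2 p hp, ht.1.2 p hp]
    obtain ⟨a, ha, ea⟩ := hs.2 p hp
    obtain ⟨b, hb, eb⟩ := ht.2 p hp
    obtain ⟨t, ht'⟩ := hbij.2 (b⁻¹ * a)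
    refine planeRep_check.2.2 _ (hout hs.1 p hp) _ (hout ht.1 p hp) t fun k => hbij.1 ?_
    rw [hmul, ht']
    have := congrFun (ea.symm.trans eb) k
    simp only [Pi.smul_apply, smul_eq_mul] at this
    show b⁻¹ * a * vec (σ p) k = vec (τ p) k
    rw [mul_assoc, this, inv_mul_cancel_left₀ hb]
  let K : Subgroup (Matrix.SpecialLinearGroup (Fin 3) F) :=
    { carrier := {g | ∃ σ, Rel g σ}
      one_mem' := ⟨1, (fixer triSet).one_mem, fun p _ => ⟨1, one_ne_zero, by simp⟩⟩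
      mul_mem' := by
        rintro g h ⟨σ, hσ⟩ ⟨τ, hτ⟩
        refine ⟨σ * τ, (fixer triSet).mul_mem hσ.1 hτ.1, fun p hp => ?_⟩
        obtain ⟨b, hb, eb⟩ := hτ.2 p hp
        obtain ⟨a, ha, ea⟩ := hσ.2 _ (hout hτ.1 p hp)
        exact ⟨b * a, mul_ne_zero hb ha, by
          rw [Matrix.SpecialLinearGroup.coe_mul, ← Matrix.mulVec_mulVec, eb, Matrix.mulVec_smul, ea, smul_smul]; rfl⟩
      inv_mem' := by
        rintro g ⟨σ, hσ⟩
        refine ⟨σ⁻¹, (fixer triSet).inv_mem hσ.1, fun p hp => ?_⟩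
        obtain ⟨a, ha, ea⟩ := hσ.2 _ (hout ((fixer triSet).inv_mem hσ.1) p hp)
        refine ⟨a⁻¹, inv_ne_zero ha, ?_⟩
        rw [Equiv.Perm.inv_def, Equiv.apply_symm_apply] at ea
        have h1 := congrArg (fun v => (g⁻¹).1 *ᵥ v) ea
        simp only [Matrix.mulVec_mulVec, ← Matrix.SpecialLinearGroup.coe_mul, inv_mul_cancel,
          Matrix.SpecialLinearGroup.coe_one, Matrix.one_mulVec, Matrix.mulVec_smul] at h1
        rw [Equiv.Perm.inv_def, h1, smul_smul, inv_mul_cancel₀ ha, one_smul] }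
  have hKtop : K = ⊤ := by
    refine Cfsg.Lib.Classical.SLGroup.eq_top_of_transvection K fun i j hij c => ?_
    obtain ⟨c, rfl⟩ := hbij.2 c
    by_cases hc : c = 0
    · subst hc
      have e : (SpecialLinearGroup.transvection hij (phi ω 0) : Matrix.SpecialLinearGroup (Fin 3) F) = 1 :=
        Subtype.ext (by simp [transvection_coe, (phi_vals (F := F) ω).1])
      rw [e]; exact K.one_mem
    obtain ⟨e, he, hek⟩ := List.mem_map.1 (planeMoves_all i j hij c hc)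
    obtain ⟨h1, h2, h3⟩ := planeMoves_check e he
    have hperm : isPermList e.2 = true := by
      have h1' := h1
      simp only [keepsCode, Bool.and_eq_true] at h1'
      exact h1'.1
    have happ := permOf_apply hperm
    refine ⟨permOf e.2, ⟨permOf_mem_M24 h1, fun p hp => (happ p).trans (h2 p hp)⟩, fun p hp => ?_⟩
    obtain ⟨t, ht, hk⟩ := (h3 p hp).2
    refine ⟨phi ω t, fun h => ht (hz.1 h), funext fun k => ?_⟩
    have h := congrArg (phi ω) (hk k)
    rw [hadd, hmul] at h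
    rw [hek] at h
    rw [Pi.smul_apply, smul_eq_mul, happ p]
    refine Eq.trans ?_ h
    rw [transvection_coe, Matrix.add_mulVec, Matrix.one_mulVec, Pi.add_apply, Matrix.single_mulVec_eq,
      Pi.smul_apply, smul_eq_mul]
    by_cases hki : k = i
    · subst hki
      simp [vec, hmul]
    · simp [vec, hki, (phi_vals (F := F) ω).1]
  have hrel : ∀ g, ∃ σ, Rel g σ := fun g => by
    have : g ∈ K := by rw [hKtop]; exact Subgroup.mem_top g
    exact this
  choose f hf using hrel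
  let φ : Matrix.SpecialLinearGroup (Fin 3) F →* ↥(fixer triSet) :=
    MonoidHom.mk' (fun g => ⟨f g, (hf g).1⟩) fun g h => Subtype.ext (by
      refine huniq (g * h) _ _ (hf _) ⟨(fixer triSet).mul_mem (hf g).1 (hf h).1, fun p hp => ?_⟩
      obtain ⟨b, hb, eb⟩ := (hf h).2 p hp
      obtain ⟨a, ha, ea⟩ := (hf g).2 _ (hout (hf h).1 p hp)
      exact ⟨b * a, mul_ne_zero hb ha, by
        rw [Matrix.SpecialLinearGroup.coe_mul, ← Matrix.mulVec_mulVec, eb, Matrix.mulVec_smul, ea, smul_smul]; rfl⟩)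
  have hcen : Subgroup.center (Matrix.SpecialLinearGroup (Fin 3) F) ≤ φ.ker := by
    intro z hz'
    obtain ⟨r, hr, hzr⟩ := Matrix.SpecialLinearGroup.mem_center_iff.1 hz'
    refine Subtype.ext (huniq z _ 1 (hf z) ⟨(fixer triSet).one_mem, fun p _ => ⟨r, fun h0 => ?_, ?_⟩⟩)
    · rw [h0] at hr; simp at hr
    · rw [← hzr, Matrix.scalar_apply, ← Matrix.smul_one_eq_diagonal, Matrix.smul_mulVec, Matrix.one_mulVec]; rfl
  let ψ : Matrix.ProjectiveSpecialLinearGroup (Fin 3) F →* ↥(fixer triSet) := QuotientGroup.lift _ φ hcen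
  haveI : IsSimpleGroup (Matrix.ProjectiveSpecialLinearGroup (Fin 3) F) :=
    Cfsg.Lib.Classical.SLGroup.isSimpleGroup_psl (Or.inl (by simp))
  have hinj : Function.Injective ψ := by
    rcases IsSimpleGroup.eq_bot_or_eq_top_of_normal ψ.ker inferInstance with h | h
    · exact (MonoidHom.ker_eq_bot_iff ψ).1 h
    exfalso
    let T : Matrix.SpecialLinearGroup (Fin 3) F :=
      SpecialLinearGroup.transvection (show (0 : Fin 3) ≠ 1 by decide) 1
    have h1 : f T = 1 := by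
      have : (T : Matrix.ProjectiveSpecialLinearGroup (Fin 3) F) ∈ ψ.ker := by rw [h]; exact Subgroup.mem_top _
      exact congrArg Subtype.val (this : ψ (QuotientGroup.mk T) = 1)
    obtain ⟨p, hp, hpv⟩ : ∃ p, p ∉ triSet ∧ ∀ k, planeVec p k = if k = 1 then 1 else 0 := by decide +kernel
    obtain ⟨a, -, ea⟩ := (hf T).2 p hp
    rw [h1] at ea
    have h0 := congrFun ea 0
    simp only [T, transvection_coe, Matrix.add_mulVec, Matrix.one_mulVec, Pi.add_apply, Matrix.single_mulVec_eq,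
      Pi.smul_apply, smul_eq_mul, Equiv.Perm.one_apply, vec, hpv] at h0
    simp [(phi_vals (F := F) ω).1, (phi_vals (F := F) ω).2.1] at h0
  have hc1 : Nat.card ↥(fixer triSet) = 20160 := by
    rw [card_fixer (by decide), show (triSet).card = 3 by decide]
    exact card_lev.2.2.2.2.1
  have hc2 : Nat.card (Matrix.ProjectiveSpecialLinearGroup (Fin 3) F) = 20160 := by
    have h1 := Cfsg.Lib.Classical.LinearOrders.card_sl_mul (F := F) (n := 3) (by norm_num)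
    have h2 := Subgroup.card_eq_card_quotient_mul_card_subgroup
      (Subgroup.center (Matrix.SpecialLinearGroup (Fin 3) F))
    rw [Cfsg.Lib.Classical.LinearOrders.card_center_sl (by norm_num), hF] at h2
    rw [hF, Fin.prod_univ_three] at h1
    rw [show Nat.gcd 3 (4 - 1) = 3 by rfl] at h2
    norm_num at h1
    show Nat.card (Matrix.SpecialLinearGroup (Fin 3) F ⧸ Subgroup.center _) = _
    rw [Nat.card_eq_fintype_card (α := Matrix.SpecialLinearGroup (Fin 3) F)] at h2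
    omega
  haveI : Finite ↥(fixer triSet) := Nat.finite_of_card_ne_zero (by rw [hc1]; norm_num)
  exact ⟨(MulEquiv.ofBijective ψ ((Nat.bijective_iff_injective_and_card ψ).2 ⟨hinj, hc2.trans hc1.symm⟩)).symm⟩

theorem stab_three (p q r : GolayPt) (hpq : p ≠ q) (hpr : p ≠ r) (hqr : q ≠ r) :
    Nonempty (↥(MulAction.stabilizer M24 p ⊓ MulAction.stabilizer M24 q ⊓ MulAction.stabilizer M24 r) ≃*
      ↥(fixer triSet)) := by
  classical
  obtain ⟨σ, hσ, -, hmove⟩ := Cfsg.Lib.Leech.exists_perm_sets ∅ ({p, q, r} : Finset GolayPt) triSet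
    (Finset.disjoint_empty_left _) (Finset.disjoint_empty_left _)
    (by rw [Finset.card_insert_of_notMem (by simp [hpq, hpr]), Finset.card_pair hqr]; decide)
    (by rw [Finset.card_insert_of_notMem (by simp [hpq, hpr]), Finset.card_pair hqr]; simp)
  have hmem : ∀ a, a ∈ ({p, q, r} : Finset GolayPt) ↔ σ a ∈ triSet := fun a => by
    rw [← hmove]
    exact (Finset.smul_mem_smul_finset_iff σ (b := a)).symm
  let S : M24 := ⟨σ, hσ⟩
  refine ⟨{ toFun := fun g => ⟨σ * g.1.1 * σ⁻¹, M24.mul_mem (M24.mul_mem hσ g.1.2) (M24.inv_mem hσ), fun a ha => ?_⟩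
            invFun := fun h => ⟨⟨σ⁻¹ * h.1 * σ, M24.mul_mem (M24.mul_mem (M24.inv_mem hσ) h.2.1) hσ⟩, ?_⟩
            left_inv := fun g => Subtype.ext (Subtype.ext (by simp [mul_assoc]))
            right_inv := fun h => Subtype.ext (by simp [mul_assoc])
            map_mul' := fun g h => Subtype.ext (by simp [mul_assoc]) }⟩
  · have : σ⁻¹ a ∈ ({p, q, r} : Finset GolayPt) := by
      rw [hmem, Equiv.Perm.inv_def, Equiv.apply_symm_apply]; exact ha
    have hfix : (g.1.1 : Equiv.Perm GolayPt) (σ⁻¹ a) = σ⁻¹ a := by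
      obtain ⟨⟨hg1, hg2⟩, hg3⟩ := g.2
      simp only [Finset.mem_insert, Finset.mem_singleton] at this
      rcases this with e | e | e <;> rw [e]
      exacts [hg1, hg2, hg3]
    simp only [Equiv.Perm.mul_apply, hfix]
    rw [Equiv.Perm.inv_def, Equiv.apply_symm_apply]
  · have key : ∀ a ∈ ({p, q, r} : Finset GolayPt), (σ⁻¹ * h.1 * σ) a = a := fun a ha => by
      simp only [Equiv.Perm.mul_apply, h.2.2 _ ((hmem a).1 ha), Equiv.Perm.inv_def, Equiv.symm_apply_apply]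
    exact ⟨⟨key p (by simp), key q (by simp)⟩, key r (by simp)⟩

end Cfsg.Lib.Golay.Plane
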